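import Cfsg.Agent.H25.UGDefs

/-! Rotations are products of two affine maps of the circle (piece SL2 of project UG). -/

set_option autoImplicit false

namespace Cfsg.Agent.H61.UgSl2

open Cfsg Module Cfsg.Agent.H31 Cfsg.Agent.H77.Sg Cfsg.Agent.H25.UG

universe u

theorem alg1 {K : Type u} [Field K] {z s x : K} (z0 : z ≠ 0) (z1 : 1 + z ≠ 0) (h1 : x - 1 ≠ 0)
    (h2 : -1 * z * s - 1 ≠ 0) (h3 : -1 * z⁻¹ * x - 1 ≠ 0) (h4 : z * z * s - 1 ≠ 0)
    (h : x / (x - 1) = -1 * z * s / (-1 * z * s - 1) + -((1 - z) / (1 + z))) :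
    -1 * z⁻¹ * x / (-1 * z⁻¹ * x - 1) = z * z * s / (z * z * s - 1) + (1 - z) / (1 + z) := by
  rw [← neg_div, div_add_div _ _ h2 z1, div_eq_div_iff h1 (mul_ne_zero h2 z1)] at h
  have e : -1 * z⁻¹ * x * z = -x := by field_simp
  have h3' := mul_ne_zero h3 z0
  rw [sub_mul, e] at h3'
  rw [← mul_div_mul_right _ _ z0, sub_mul, e, div_add_div _ _ h4 z1,
    div_eq_div_iff h3' (mul_ne_zero h4 z1)]
  linear_combination (-z) * h

theorem alg2 {K : Type u} [Field K] {z s x : K} (z0 : z ≠ 0) (z1 : z + 1 ≠ 0) (z2 : z - 1 ≠ 0)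
    (h1 : x - 1 ≠ 0) (h2 : z * s - 1 ≠ 0) (h3 : z⁻¹ * x - 1 ≠ 0) (h4 : z⁻¹ * s - 1 ≠ 0)
    (h : x / (x - 1) = 1 * (z * s / (z * s - 1)) + z / ((z + 1) * (z - 1))) :
    z⁻¹ * x / (z⁻¹ * x - 1) =
      (1 + z) ^ 2 / z * (z⁻¹ * s / (z⁻¹ * s - 1)) + 1 / (z * (z - 1)) := by
  have h3' : x - z ≠ 0 := fun e => h3 (by rw [sub_eq_zero.1 e, inv_mul_cancel₀ z0, sub_self])
  have h4' : s - z ≠ 0 := fun e => h4 (by rw [sub_eq_zero.1 e, inv_mul_cancel₀ z0, sub_self])
  have e1 : ∀ y : K, z⁻¹ * y / (z⁻¹ * y - 1) = y / (y - z) := fun y => by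
    rw [← mul_div_mul_left _ _ z0, mul_sub, mul_inv_cancel_left₀ z0, mul_one]
  rw [one_mul, div_add_div _ _ h2 (mul_ne_zero z1 z2),
    div_eq_div_iff h1 (mul_ne_zero h2 (mul_ne_zero z1 z2))] at h
  rw [e1, e1, div_mul_div_comm, div_add_div _ _ (mul_ne_zero z0 h4') (mul_ne_zero z0 z2),
    div_eq_div_iff h3' (mul_ne_zero (mul_ne_zero z0 h4') (mul_ne_zero z0 z2))]
  linear_combination z ^ 2 * h

theorem sl2 : Sl2Stmt.{u} := by
  intro E K _ _ _ _ _ σ B q R t ν h k hz ⟨s, sT, sZ, hs⟩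
  obtain ⟨m, mZ, hm⟩ := k.Ez (-1) (by simp)
  rw [map_neg, map_one] at hm
  let M : Rt K (q + 1) := ⟨m, mZ⟩
  have MM : M * M = 1 := Subtype.ext (Units.ext (by
    change (m : K) * m = 1
    rw [hm, neg_mul_neg, mul_one]))
  have mT : ∀ (z : Rt K (q + 1)), ∀ x ∈ Rt K (q ^ 7 + 1), z * x ∈ Rt K (q ^ 7 + 1) :=
    fun z x hx => mul_mem (k.ZT z.2) hx
  have mN : ∀ (z : Rt K (q + 1)), ∀ x ∉ Rt K (q + 1), z * x ∉ Rt K (q + 1) :=
    fun z x hx e => hx ((Subgroup.mul_mem_cancel_left _ z.2).1 e)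
  have n1 : ∀ x ∉ Rt K (q + 1), (x : K) - 1 ≠ 0 := fun x hx e =>
    hx (Units.val_eq_one.1 (sub_eq_zero.1 e) ▸ one_mem _)
  have dat : ∀ z : Rt K (q + 1), ∃ e : E, e ≠ 0 ∧ σ e = e⁻¹ ∧ ((z : Kˣ) : K) = algebraMap E K e ∧
      (z ≠ M → 1 + e ≠ 0) ∧ (z ≠ 1 → e - 1 ≠ 0) := fun z => by
    obtain ⟨e, he, ez⟩ := k.zE z z.2
    refine ⟨e, left_ne_zero_of_mul_eq_one he, eq_inv_of_mul_eq_one_right he, ez,
      fun a b => a (Subtype.ext (Units.ext ?_)), fun a b => a (Subtype.ext (Units.ext ?_))⟩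
    · rw [ez, eq_neg_of_add_eq_zero_right b, map_neg, map_one]
      exact hm.symm
    · rw [ez, sub_eq_zero.1 b, map_one]
      rfl
  have inj := (algebraMap E K).injective
  refine ⟨fun ti => MonoidHom.ext fun z => ?_, fun ai => ?_⟩
  · rw [MonoidHom.pow_apply, pow_two, ← map_mul, MonoidHom.one_apply]
    by_cases hM : z = M
    · rw [hM, MM, map_one]
    obtain ⟨e, e0, se, ez, e1, -⟩ := dat z
    have e1 := e1 hM
    obtain ⟨x, xT, xZ, hx⟩ := k.trn _ (mT (M * z) s sT) (mN (M * z) s sZ) (-((1 - e) / (1 + e))) (by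
      have : 1 + e⁻¹ ≠ 0 := by rw [← se, ← map_one σ, ← map_add]; exact (map_ne_zero σ).2 e1
      rw [map_neg, map_div₀, map_sub, map_add, map_one, se, ← neg_add, div_add_div _ _ e1 this,
        neg_eq_zero, div_eq_zero_iff]
      left
      linear_combination (-2) * mul_inv_cancel₀ e0)
    have a1 := ti _ (mT (M * z) s sT) x xT (mN (M * z) s sZ) xZ _ hx
    have a2 := ti _ (mT (z * z) s sT) _ (mT (M * z⁻¹) x xT) (mN (z * z) s sZ) (mN (M * z⁻¹) x xZ)
      ((1 - e) / (1 + e)) (by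
        have b2 := n1 _ (mN (M * z) s sZ)
        have b3 := n1 _ (mN (M * z⁻¹) x xZ)
        have b4 := n1 _ (mN (z * z) s sZ)
        simp only [kap, M, Subgroup.coe_mul, Subgroup.coe_inv, Units.val_mul,
          Units.val_inv_eq_inv_val, hm, map_neg, map_div₀, map_sub, map_add, map_one, ← ez]
          at hx b2 b3 b4 ⊢
        refine alg1 (Units.ne_zero _) ?_ (n1 x xZ) b2 b3 b4 hx
        rw [ez, ← map_one (algebraMap E K), ← map_add]
        exact (map_ne_zero _).2 e1)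
    rw [hz _ x xT, a1, hz _ s sT, hz _ s sT, ← mul_assoc, ← Units.val_mul, ← map_mul,
      mul_mul_mul_comm, MM, inv_mul_cancel, mul_one, map_one] at a2
    exact Units.ext (mul_right_cancel₀ hs a2).symm
  · have key : ∀ z : Rt K (q + 1), z ≠ 1 → z ≠ M → ν z = 1 := fun z h1 hM => by
      obtain ⟨e, e0, se, ez, e1, e2⟩ := dat z
      have e1 : e + 1 ≠ 0 := add_comm 1 e ▸ e1 hM
      have e2 := e2 h1
      obtain ⟨x, xT, xZ, hx⟩ := k.trn _ (mT z s sT) (mN z s sZ) (e / ((e + 1) * (e - 1))) (by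
        have b1 : e⁻¹ + 1 ≠ 0 := by
          rw [← se, ← map_one σ, ← map_add]; exact (map_ne_zero σ).2 e1
        have b2 : e⁻¹ - 1 ≠ 0 := by
          rw [← se, ← map_one σ, ← map_sub]; exact (map_ne_zero σ).2 e2
        have b3 : 1 + e ≠ 0 := add_comm 1 e ▸ e1
        have b4 : 1 - e ≠ 0 := fun a => e2 (by linear_combination -a)
        rw [map_div₀, map_mul, map_sub, map_add, map_one, se]
        field_simp
        ring)
      rw [← one_mul (kap ((z : Kˣ) * s)), ← map_one (algebraMap E K)] at hx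
      have a1 := ai _ (mT z s sT) x xT (mN z s sZ) xZ 1 _ (map_one σ) one_ne_zero hx
      have a2 := ai _ (mT z⁻¹ s sT) _ (mT z⁻¹ x xT) (mN z⁻¹ s sZ) (mN z⁻¹ x xZ)
        ((1 + e) ^ 2 / e) (1 / (e * (e - 1))) (by
          rw [map_div₀, map_pow, map_add, map_one, se]
          field_simp
          ring) (div_ne_zero (pow_ne_zero _ (add_comm 1 e ▸ e1)) e0) (by
          have b2 := n1 _ (mN z s sZ)
          have b3 := n1 _ (mN z⁻¹ x xZ)
          have b4 := n1 _ (mN z⁻¹ s sZ)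
          simp only [kap, Subgroup.coe_inv, Units.val_mul, Units.val_inv_eq_inv_val, map_div₀,
            map_sub, map_add, map_one, map_mul, map_pow, ← ez] at hx b2 b3 b4 ⊢
          refine alg2 (Units.ne_zero _) ?_ ?_ (n1 x xZ) b2 b3 b4 hx
          · rw [ez, ← map_one (algebraMap E K), ← map_add]
            exact (map_ne_zero _).2 e1
          · rw [ez, ← map_one (algebraMap E K), ← map_sub]
            exact (map_ne_zero _).2 e2)
      rw [hz _ x xT, a1, hz _ s sT, hz _ s sT] at a2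
      have a3 := mul_left_cancel₀ (Units.ne_zero _) a2
      exact Units.ext (mul_right_cancel₀ hs (a3.trans (one_mul _).symm))
    refine MonoidHom.ext fun z => ?_
    rw [MonoidHom.one_apply]
    by_cases h1 : z = 1
    · rw [h1, map_one]
    by_cases hM : z = M
    swap
    · exact key z h1 hM
    obtain ⟨y, y1, yM⟩ : ∃ y : Rt K (q + 1), y ≠ 1 ∧ y ≠ M := by
      have := Fintype.ofFinite (Rt K (q + 1))
      obtain ⟨a, b, c, hab, hac, hbc⟩ := Fintype.two_lt_card_iff.1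
        (show 2 < Fintype.card (Rt K (q + 1)) by
          have := k.q2
          rw [← Nat.card_eq_fintype_card, k.cardZ]
          omega)
      by_contra hn
      have hn' : ∀ y : Rt K (q + 1), y = 1 ∨ y = M := fun y => by
        by_contra e
        exact hn ⟨y, not_or.1 e⟩
      rcases hn' a with rfl | rfl <;> rcases hn' b with rfl | rfl <;>
        rcases hn' c with rfl | rfl <;> contradiction
    have a1 := key (M * y) (fun e => yM (by rw [← mul_one M, ← e, ← mul_assoc, MM, one_mul]))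
      (fun e => y1 (mul_eq_left.1 e))
    rwa [map_mul, key y y1 yM, mul_one, ← hM] at a1

end Cfsg.Agent.H61.UgSl2
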