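import Cfsg.Agent.H41.S6Kit2

/-! Project SP6, piece F0: elementary subgroups of `C(t)`, transitivity on `D ∩ E₃`, non-fusion. -/

set_option autoImplicit false
set_option maxRecDepth 100000

namespace Cfsg.Agent.H61.S6F0

open Cfsg Subgroup
open Cfsg.Agent.H44 Cfsg.Agent.H55.Sp6 Cfsg.Agent.H2.L3E Cfsg.Agent.H41.S6

universe u

variable {G : Type u} [Group G] {ι : Sp →* G} {t : G}

theorem card_le {F : Subgroup G} {X : Subgroup Sp}
    (h : ∀ x ∈ F, ∃ l ∈ X, x = ι l ∨ x = t * ι l) : Nat.card F ≤ 2 * Nat.card X := by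
  have : ∀ x : F, ∃ p : Bool × X, (if p.1 then t * ι p.2 else ι p.2) = x := fun x => by
    obtain ⟨l, hl, e | e⟩ := h x x.2
    · exact ⟨(false, ⟨l, hl⟩), e.symm⟩
    · exact ⟨(true, ⟨l, hl⟩), e.symm⟩
  choose f hf using this
  have : Finite Sp := Nat.finite_of_card_ne_zero (by rw [card_Sp]; norm_num)
  have := Nat.card_le_card_of_injective f fun x y e => Subtype.ext (by rw [← hf x, ← hf y, e])
  rwa [Nat.card_prod, Nat.card_eq_fintype_card (α := Bool), Fintype.card_bool] at this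

theorem tl_mul (h : Hy ι t) (a b : Sp) : t * ι a * (t * ι b) = ι (a * b) := by
  rw [h.ct a, mul_assoc, h.ttx, map_mul]

theorem card_E3 [Finite G] (h : Hy ι t) : Nat.card (E3 ι t) = 128 := by
  have h1 := card_le fun x (hx : x ∈ E3 ι t) => h.mem_E3.1 hx
  have le : A.map ι ≤ E3 ι t := le_sup_left
  have h2 := card_dvd_of_le le
  have h3 : Nat.card (E3 ι t) ≠ 64 := fun e => by
    have := eq_of_le_of_card_ge le (by rw [e, h.card_map, card_A])
    obtain ⟨l, -, e⟩ : t ∈ A.map ι := this ▸ mem_sup_right (mem_zpowers t)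
    exact h.tn l e
  have h4 : 0 < Nat.card (E3 ι t) := Nat.card_pos
  rw [h.card_map, card_A] at h2
  rw [card_A] at h1
  omega

theorem eaC (k : KF) (h : Hy ι t) : EaC ι t := fun F sq ct => by
  let X : Subgroup Sp :=
    { carrier := {l | ι l ∈ F ∨ t * ι l ∈ F}
      one_mem' := Or.inl (by rw [map_one]; exact one_mem F)
      mul_mem' := by
        rintro a b (ha | ha) (hb | hb)
        · exact Or.inl (map_mul ι a b ▸ mul_mem ha hb)
        · exact Or.inr (by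
            rw [map_mul, ← mul_assoc, h.ct a, mul_assoc]; exact mul_mem ha hb)
        · exact Or.inr (by rw [map_mul, ← mul_assoc]; exact mul_mem ha hb)
        · exact Or.inl (tl_mul h a b ▸ mul_mem ha hb)
      inv_mem' := by
        rintro a (ha | ha)
        · exact Or.inl (map_inv ι a ▸ inv_mem ha)
        · exact Or.inr (by
            have := inv_mem ha
            rwa [mul_inv_rev, h.tinv, ← map_inv, ← h.ct] at this) }
  have hF : ∀ x ∈ F, ∃ l ∈ X, x = ι l ∨ x = t * ι l := fun x hx => by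
    obtain ⟨l, rfl | rfl⟩ := h.cen x (ct x hx)
    · exact ⟨l, Or.inl hx, Or.inl rfl⟩
    · exact ⟨l, Or.inr hx, Or.inr rfl⟩
  obtain ⟨h1, h2⟩ := k.b.ea X (by
    rintro l (hl | hl)
    · exact h.inj (by rw [map_mul, map_one]; exact sq _ hl)
    · exact h.inj (by rw [← tl_mul h, map_one]; exact sq _ hl))
  have h3 := card_le hF
  refine ⟨by omega, fun e => ?_⟩
  obtain ⟨l, hl⟩ := h2 (by omega)
  refine ⟨l, fun x hx => ?_⟩
  obtain ⟨a, ha, rfl | rfl⟩ := hF x hx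
  · exact h.mem_E3.2 ⟨_, hl a ha, Or.inl (by simp)⟩
  · exact h.mem_E3.2 ⟨_, hl a ha, Or.inr (h.conj_tl l a)⟩

theorem tr [Finite G] (h : Hy ι t) (e : EaC ι t) : Tr ι t := fun y hy c => by
  obtain ⟨x, rfl⟩ := isConj_iff.1 c
  obtain ⟨l, hl⟩ := (e ((E3 ι t).map (MulAut.conj x⁻¹).toMonoidHom) (by
    rintro _ ⟨z, hz, rfl⟩
    rw [← map_mul, h.E3_sq hz, map_one]) (by
    rintro _ ⟨z, hz, rfl⟩
    show x⁻¹ * z * x⁻¹⁻¹ * t = t * (x⁻¹ * z * x⁻¹⁻¹)
    calc _ = x⁻¹ * (z * (x * t * x⁻¹)) * x := by group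
      _ = _ := by rw [h.E3_comm hz hy]; group)).2
    (by rw [card_map_of_injective (by exact (MulAut.conj x⁻¹).injective), card_E3 h])
  have : ι l * x⁻¹ ∈ NE ι t := mem_NE.2 fun z hz => by
    have := hl _ (mem_map_of_mem _ hz)
    rwa [show ι l * (MulAut.conj x⁻¹).toMonoidHom z * (ι l)⁻¹ = ι l * x⁻¹ * z * (ι l * x⁻¹)⁻¹ by
      show ι l * (x⁻¹ * z * x⁻¹⁻¹) * (ι l)⁻¹ = _
      group] at this
  refine ⟨_, inv_mem this, ?_⟩
  calc _ = x * (ι l⁻¹ * t * (ι l⁻¹)⁻¹) * x⁻¹ := by rw [map_inv]; group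
    _ = _ := by rw [h.conj_t]

theorem comm_mem (h : Hy ι t) {x y : G} (hx : x * t = t * x) (hy : y * t = t * y) :
    x * y * x⁻¹ * y⁻¹ ∈ ι.range := by
  obtain ⟨a, ea⟩ := h.cen x hx
  obtain ⟨b, eb⟩ := h.cen y hy
  refine ⟨a * b * a⁻¹ * b⁻¹, ?_⟩
  have e1 : x * y * x⁻¹ = ι a * y * (ι a)⁻¹ := by
    rcases ea with rfl | rfl
    · rfl
    · rw [h.ct a, mul_inv_rev, mul_assoc (ι a), ← hy]; group
  have e2 : y * (ι a)⁻¹ * y⁻¹ = ι b * (ι a)⁻¹ * (ι b)⁻¹ := by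
    rcases eb with rfl | rfl
    · rfl
    · rw [h.ct b, mul_inv_rev, mul_assoc (ι b), ← map_inv, h.ct a⁻¹]; group
  calc _ = ι a * (ι b * (ι a)⁻¹ * (ι b)⁻¹) := by simp [mul_assoc]
    _ = _ := by rw [← e2, e1]; group

theorem nb_aux (h : Hy ι t) {z a b c d : Sp} (ha : a * z = z * a) (hb : b * z = z * b)
    (hc : c * z = z * c) (hd : d * z = z * d)
    (e : z = a * b * a⁻¹ * b⁻¹ * (c * d * c⁻¹ * d⁻¹)) : ¬ IsConj t (ι z) := fun k => by
  obtain ⟨x, hx⟩ := isConj_iff.1 k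
  have f : ∀ s : Sp, s * z = z * s → x⁻¹ * ι s * x * t = t * (x⁻¹ * ι s * x) := fun s hs => by
    calc _ = x⁻¹ * (ι s * (x * t * x⁻¹)) * x := by group
      _ = x⁻¹ * ((x * t * x⁻¹) * ι s) * x := by rw [hx, ← map_mul, hs, map_mul]
      _ = _ := by group
  obtain ⟨l, hl⟩ := mul_mem (comm_mem h (f a ha) (f b hb)) (comm_mem h (f c hc) (f d hd))
  refine h.tn l ?_
  calc _ = x⁻¹ * ι z * x := by rw [hl, e]; simp only [map_mul, map_inv]; group
    _ = _ := by rw [← hx]; group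

theorem nb_wd (h : Hy ι t) (z a b c d : List ℕ)
    (hl : ∀ l ∈ [a, b, c, d], (∀ x ∈ l, x < 64) ∧ ((l ++ z).all (· < 64) && ((z ++ l).all (· < 64) &&
      cols (wd (l ++ z)) == cols (wd (z ++ l)))) = true)
    (e : ev g z = ev g (a ++ b ++ a.reverse ++ b.reverse ++ (c ++ d ++ c.reverse ++ d.reverse))) :
    ¬ IsConj t (ι (ev g z)) := by
  have f : ∀ l ∈ [a, b, c, d], ev g l * ev g z = ev g z * ev g l := fun l k => by
    rw [← ev_append, ← ev_append]; exact weq (hl l k).2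
  refine nb_aux h (f a (by simp)) (f b (by simp)) (f c (by simp)) (f d (by simp)) ?_
  rw [e, ev_inv (hl a (by simp)).1, ev_inv (hl b (by simp)).1, ev_inv (hl c (by simp)).1,
    ev_inv (hl d (by simp)).1]
  simp only [ev_append]

theorem nb (h : Hy ι t) : NB ι t :=
  ⟨nb_wd h (aw 1) [2] [1, 16, 17] [1, 4, 5] [2, 32, 34] (by decide +kernel) (weq (by decide +kernel)),
    nb_wd h (aw 8) [] [] [1, 4, 5] [2, 32, 34] (by decide +kernel) (weq (by decide +kernel)),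
    nb_wd h (aw 3) [1] [1, 16, 17, 2, 8, 10, 1, 16, 17] [] [] (by decide +kernel)
      (weq (by decide +kernel))⟩

theorem f0 : F0Stmt.{u} := fun k _ _ _ _ _ h => ⟨eaC k h, tr h (eaC k h), nb h⟩

end Cfsg.Agent.H61.S6F0
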