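import Cfsg.Agent.H61.DsMultA

/-! The linear character attached to the multiplicity module. -/

set_option autoImplicit false

namespace Cfsg.Agent.H61.DsM

open Matrix Cfsg.Agent.H21.DS

universe u

theorem mult (hL : LineStmt.{u}) : MultStmt.{u} := by
  intro k _ p _ _ Γ _ _ N A _ _ hA hcomm Y C _ _ _ _ π s hπ hs hsur hnorm d e ρ τ oN oC hN hC htr
  letI : CommGroup A :=
    { (inferInstance : Group A) with mul_comm := fun a b => Subtype.ext (hcomm _ a.2 _ b.2) }
  letI := Fintype.ofFinite A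
  set ρC : C →* Mat d k := (ρ.comp π).comp s with hρC
  set τC : C →* Mat e k := τ.comp s with hτC
  have he : (e : k) ≠ 0 := orth_ne oC hC (by rintro rfl; simp at htr)
  have cA : ∀ (a : A) c, ρC c * ρ a = ρ a * ρC c := fun a c => by
    change ρ (π (s c)) * ρ a = ρ a * ρ (π (s c))
    rw [← map_mul, ← map_mul, (hs c).2 a a.2]
  have mA : ∀ (a : A), ∀ f ∈ UU ρC τC, lr (ρ a) 1 f ∈ UU ρC τC := fun a f hf c => by
    rw [lr_apply, Matrix.mul_one, ← Matrix.mul_assoc, cA, Matrix.mul_assoc, hf, Matrix.mul_assoc]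
  have mY : ∀ y, ∀ f ∈ UU ρC τC, lr (ρ (π y)) (τ y⁻¹) f ∈ UU ρC τC := fun y f hf c => by
    obtain ⟨c', h'⟩ := hnorm y⁻¹ c
    have e1 : ρC c * ρ (π y) = ρ (π y) * ρC c' := by
      change ρ (π (s c)) * ρ (π y) = ρ (π y) * ρ (π (s c'))
      rw [← map_mul, ← map_mul, ← map_mul, ← map_mul, ← h']
      congr 2
      group
    have e2 : τC c' * τ y⁻¹ = τ y⁻¹ * τC c := by
      change τ (s c') * τ y⁻¹ = τ y⁻¹ * τ (s c)
      rw [← map_mul, ← map_mul, ← h']
      congr 1
      group
    rw [lr_apply, ← Matrix.mul_assoc, ← Matrix.mul_assoc, e1, Matrix.mul_assoc _ (ρC c'), hf,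
      Matrix.mul_assoc, Matrix.mul_assoc, e2]
    simp only [Matrix.mul_assoc]
  let ρA : A →* Module.End k (UU ρC τC) :=
    { toFun := fun a => (lr (ρ a) 1).restrict (mA a)
      map_one' := by
        ext f : 2
        simp [lr_apply]
      map_mul' := fun a b => by
        ext f : 2
        simp [lr_apply, Matrix.mul_assoc] }
  have ρA_apply : ∀ a f, (ρA a f : Rm d e k) = ρ a * (f : Rm d e k) := fun a f =>
    Matrix.mul_one _
  let σ : Y →* Module.End k (UU ρC τC) :=
    { toFun := fun y => (lr (ρ (π y)) (τ y⁻¹)).restrict (mY y)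
      map_one' := by
        ext f : 2
        simp [lr_apply]
      map_mul' := fun a b => by
        ext f : 2
        simp [lr_apply, Matrix.mul_assoc] }
  have σ_apply : ∀ y f, (σ y f : Rm d e k) = ρ (π y) * (f : Rm d e k) * τ y⁻¹ := fun _ _ => rfl
  let α : Y →* MulAut A := A.normalizerMonoidHom.comp (π.codRestrict _ hπ)
  have α_apply : ∀ y a, (α y a : Γ) = π y * a * (π y)⁻¹ := fun _ _ => rfl
  letI : MulAction A N := MulAction.compHom N ((MulAut.conjNormal (H := N)).comp A.subtype)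
  have sm : ∀ (a : A) (x : N), ((a • x : N) : Γ) = a * x * (a : Γ)⁻¹ := fun _ _ => rfl
  have hr : ∀ (a : A) (x : Γ), rr ρC τC (ρ (a * x * (a : Γ)⁻¹)) =
      ρA a * rr ρC τC (ρ x) * ρA a⁻¹ := fun a x => by
    ext f : 2
    rw [Module.End.mul_apply, Module.End.mul_apply, ρA_apply, rr_apply, rr_apply, ρA_apply,
      ← Pr_left (cA a), map_mul, map_mul]
    simp only [Matrix.mul_assoc, Subgroup.coe_inv]
  obtain ⟨μ, hμ⟩ := hL k p A hA Y α (UU ρC τC) ρA σ (fun y a => by
      ext f : 2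
      rw [Module.End.mul_apply, Module.End.mul_apply, ρA_apply, σ_apply, σ_apply, ρA_apply,
        α_apply, ← Matrix.mul_assoc, ← Matrix.mul_assoc, ← Matrix.mul_assoc, ← map_mul, ← map_mul,
        inv_mul_cancel_right])
    (by
      rw [finrank_UU hC]
      refine mul_ne_zero (inv_ne_zero hC) ?_
      simpa [hρC, hτC] using htr)
    N (fun x => rr ρC τC (ρ x))
    (LinearMap.pi fun x : N => ((Fintype.card N : k)⁻¹ * d * e) •
      (LinearMap.trace k _ ∘ₗ LinearMap.mulLeft k (rr ρC τC (ρ (x : Γ)⁻¹))))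
    (fun T => by
      have h1 := orth_exp oN (Ph ρC τC T)
      conv_rhs => rw [← rr_Ph oC hC T, ← one_smul k (Ph ρC τC T), ← inv_mul_cancel₀ hN, mul_smul,
        ← h1]
      ext f : 2
      simp only [LinearMap.pi_apply, LinearMap.smul_apply, LinearMap.comp_apply,
        LinearMap.mulLeft_apply, trace_rr, LinearMap.sum_apply, Submodule.coe_sum,
        Submodule.coe_smul, rr_apply, Matrix.smul_mul, Matrix.sum_mul, map_smul, map_sum,
        Finset.smul_sum, smul_smul, MonoidHom.comp_apply, Subgroup.coe_subtype, Subgroup.coe_inv,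
        smul_eq_mul]
      refine Finset.sum_congr rfl fun x _ => ?_
      congr 1
      ring)
    (fun a x => by rw [sm, hr])
    (fun a T x => by
      simp only [LinearMap.pi_apply, LinearMap.smul_apply, LinearMap.comp_apply,
        LinearMap.mulLeft_apply]
      rw [sm, show ((a : Γ) * x * (a : Γ)⁻¹)⁻¹ = a * (x : Γ)⁻¹ * (a : Γ)⁻¹ by group, hr]
      congr 1
      rw [show ρA a * rr ρC τC (ρ (x : Γ)⁻¹) * ρA a⁻¹ * (ρA a * T * ρA a⁻¹) =
          ρA a * (rr ρC τC (ρ (x : Γ)⁻¹) * (ρA a⁻¹ * ρA a) * T * ρA a⁻¹) by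
        simp only [mul_assoc], LinearMap.trace_mul_comm, ← map_mul, inv_mul_cancel, map_one,
        mul_one, mul_assoc, ← map_mul, inv_mul_cancel, map_one, mul_one])
    (fun x hx => by
      obtain ⟨c, hc⟩ := hsur x ⟨x.2, fun a ha => by
        have := congrArg Subtype.val (hx ⟨a, ha⟩)
        rw [sm] at this
        exact mul_inv_eq_iff_eq_mul.1 this⟩
      refine ⟨(e : k)⁻¹ * (τC c).trace, ?_⟩
      ext f : 2
      have h1 : ρ x * (f : Rm d e k) = (f : Rm d e k) * τC c := by rw [← hc]; exact f.2 c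
      rw [rr_apply, h1, LinearMap.smul_apply, Module.End.one_apply, Submodule.coe_smul, mul_smul,
        ← Pr_tr oC hC f.2, smul_smul, inv_mul_cancel₀ he, one_smul])
  have α1 : ∀ z, π z ∈ Subgroup.centralizer (A : Set Γ) → α z = 1 := fun z hz => by
    ext a
    rw [α_apply, ← hz a a.2, mul_inv_cancel_right]
    rfl
  refine ⟨μ, fun c => Units.ext (hμ _ (α1 _ (hs c).2) 1 ?_), fun z a b hz ha hb => ?_⟩
  · ext f : 2
    have h1 : ρ (π (s c)) * (f : Rm d e k) = (f : Rm d e k) * τ (s c) := f.2 c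
    rw [σ_apply, h1, Matrix.mul_assoc, ← map_mul, mul_inv_cancel, map_one, Matrix.mul_one, one_smul,
      Module.End.one_apply]
  · have h1 : b • τ z⁻¹ = 1 := by
      rw [← Matrix.one_mul (τ z⁻¹), ← Matrix.smul_mul, ← hb, ← map_mul, mul_inv_cancel, map_one]
    have hb0 : b ≠ 0 := fun h0 => he (by
      have := congrArg trace h1
      rw [h0, zero_smul, trace_zero, trace_one, Fintype.card_fin] at this
      exact this.symm)
    rw [hμ z (α1 z hz) (a * b⁻¹), inv_mul_cancel_right₀ hb0]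
    ext f : 2
    rw [σ_apply, ha, show τ z⁻¹ = b⁻¹ • 1 by rw [← h1, smul_smul, inv_mul_cancel₀ hb0, one_smul],
      Matrix.smul_mul, Matrix.one_mul, Matrix.mul_smul, Matrix.mul_one, smul_smul, mul_comm]
    rfl

end Cfsg.Agent.H61.DsM
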