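import Cfsg.Agent.H21.DSDefs

/-! The multiplicity space of two matrix representations. -/

set_option autoImplicit false

namespace Cfsg.Agent.H61.DsM

open Matrix Cfsg.Agent.H21.DS

universe u

variable {k : Type} [Field k] {G : Type u} [Group G] [Fintype G] {d e : ℕ}

omit [Group G] in
theorem sum3 (a : k) (f : G → Fin d → Fin d → k) :
    a * ∑ g, ∑ l, ∑ m, f g l m = ∑ l, ∑ m, a * ∑ g, f g l m := by
  rw [Finset.sum_comm, Finset.mul_sum]
  refine Finset.sum_congr rfl fun l _ => ?_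
  rw [Finset.sum_comm, Finset.mul_sum]

theorem orth_avg {ρ : G →* Mat d k} (h : Orth ρ) (T : Mat d k) :
    (d : k) • ∑ g, ρ g * T * ρ g⁻¹ = ((Fintype.card G : k) * T.trace) • (1 : Mat d k) := by
  ext a b
  have e1 : ∀ g, (ρ g * T * ρ g⁻¹) a b = ∑ l, ∑ m, T m l * (ρ g⁻¹ l b * ρ g a m) := fun g => by
    simp only [mul_apply, Finset.sum_mul]
    exact Finset.sum_congr rfl fun l _ => Finset.sum_congr rfl fun m _ => by ring
  have e2 : ∀ l m, (d : k) * ∑ g, T m l * (ρ g⁻¹ l b * ρ g a m) =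
      T m l * if l = m ∧ b = a then (Fintype.card G : k) else 0 := fun l m => by
    rw [← h l b a m, ← Finset.mul_sum]; ring
  rw [Matrix.smul_apply, Matrix.sum_apply, smul_eq_mul, Finset.sum_congr rfl fun g _ => e1 g, sum3,
    Finset.sum_congr rfl fun l _ => Finset.sum_congr rfl fun m _ => e2 l m]
  by_cases hab : a = b
  · subst hab
    simp [trace, Finset.mul_sum, mul_comm]
  · simp [hab, Ne.symm hab]

theorem orth_exp {ρ : G →* Mat d k} (h : Orth ρ) (T : Mat d k) :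
    (d : k) • ∑ g, (ρ g⁻¹ * T).trace • ρ g = (Fintype.card G : k) • T := by
  ext a b
  have e1 : ∀ g, ((ρ g⁻¹ * T).trace • ρ g) a b = ∑ l, ∑ m, T m l * (ρ g⁻¹ l m * ρ g a b) :=
    fun g => by
      simp only [Matrix.smul_apply, trace, diag_apply, mul_apply, Finset.sum_mul, smul_eq_mul]
      exact Finset.sum_congr rfl fun l _ => Finset.sum_congr rfl fun m _ => by ring
  have e2 : ∀ l m, (d : k) * ∑ g, T m l * (ρ g⁻¹ l m * ρ g a b) =
      T m l * if l = b ∧ m = a then (Fintype.card G : k) else 0 := fun l m => by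
    rw [← h l m a b, ← Finset.mul_sum]; ring
  rw [Matrix.smul_apply, Matrix.sum_apply, smul_eq_mul, Finset.sum_congr rfl fun g _ => e1 g, sum3,
    Finset.sum_congr rfl fun l _ => Finset.sum_congr rfl fun m _ => e2 l m]
  simp [ite_and, mul_comm]

theorem orth_ne {ρ : G →* Mat d k} (h : Orth ρ) (hG : (Fintype.card G : k) ≠ 0) (hd : d ≠ 0) :
    (d : k) ≠ 0 := fun e => by
  have := h ⟨0, by omega⟩ ⟨0, by omega⟩ ⟨0, by omega⟩ ⟨0, by omega⟩
  rw [e, zero_mul, if_pos ⟨rfl, rfl⟩] at this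
  exact hG this.symm

/-- rectangular matrices -/
abbrev Rm (d e : ℕ) (k : Type) : Type := Matrix (Fin d) (Fin e) k

theorem trM (L : Rm d e k →ₗ[k] Rm d e k) :
    LinearMap.trace k _ L = ∑ l, ∑ j, L (single l j 1) l j := by
  rw [LinearMap.trace_eq_matrix_trace k (stdBasis k (Fin d) (Fin e)), trace, Fintype.sum_prod_type]
  refine Finset.sum_congr rfl fun l _ => Finset.sum_congr rfl fun j _ => ?_
  rw [diag_apply, LinearMap.toMatrix_apply, stdBasis_eq_single]
  simp [stdBasis]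

/-- multiplication from both sides -/
def lr (P : Mat d k) (Q : Mat e k) : Rm d e k →ₗ[k] Rm d e k where
  toFun g := P * g * Q
  map_add' a b := by rw [Matrix.mul_add, Matrix.add_mul]
  map_smul' c a := by rw [Matrix.mul_smul, Matrix.smul_mul]; rfl

theorem lr_apply (P : Mat d k) (Q : Mat e k) (g : Rm d e k) : lr P Q g = P * g * Q := rfl

theorem trace_lr (P : Mat d k) (Q : Mat e k) :
    LinearMap.trace k _ (lr P Q) = P.trace * Q.trace := by
  rw [trM, trace, trace, Finset.sum_mul_sum]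
  refine Finset.sum_congr rfl fun l _ => Finset.sum_congr rfl fun j _ => ?_
  simp [lr_apply, mul_apply, single_apply, ite_and]

variable (ρ : G →* Mat d k) (τ : G →* Mat e k)

/-- the intertwining matrices -/
def UU : Submodule k (Rm d e k) where
  carrier := {f | ∀ c, ρ c * f = f * τ c}
  zero_mem' c := by simp
  add_mem' ha hb c := by rw [Matrix.mul_add, Matrix.add_mul, ha, hb]
  smul_mem' a _ h c := by rw [Matrix.mul_smul, Matrix.smul_mul, h]

/-- the averaging operator -/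
noncomputable def Pr : Rm d e k →ₗ[k] Rm d e k :=
  (Fintype.card G : k)⁻¹ • ∑ c, lr (ρ c) (τ c⁻¹)

theorem Pr_apply (g : Rm d e k) :
    Pr ρ τ g = (Fintype.card G : k)⁻¹ • ∑ c, ρ c * g * τ c⁻¹ := by
  simp [Pr, lr_apply]

theorem Pr_mem (g : Rm d e k) : Pr ρ τ g ∈ UU ρ τ := fun c => by
  rw [Pr_apply, Matrix.mul_smul, Matrix.smul_mul, Matrix.mul_sum, Matrix.sum_mul,
    ← Equiv.sum_comp (Equiv.mulLeft c) fun x => ρ x * g * τ x⁻¹ * τ c]
  congr 1
  refine Finset.sum_congr rfl fun x _ => ?_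
  rw [Equiv.coe_mulLeft, Matrix.mul_assoc (ρ (c * x) * g), ← map_mul, _root_.mul_inv_rev,
    inv_mul_cancel_right, map_mul]
  simp only [Matrix.mul_assoc]

variable {ρ τ}

theorem Pr_mul {u : Rm d e k} (hu : u ∈ UU ρ τ) (T : Mat e k) :
    Pr ρ τ (u * T) = (Fintype.card G : k)⁻¹ • (u * ∑ c, τ c * T * τ c⁻¹) := by
  rw [Pr_apply, Matrix.mul_sum]
  congr 1
  refine Finset.sum_congr rfl fun x _ => ?_
  rw [← Matrix.mul_assoc, hu x]
  simp only [Matrix.mul_assoc]

theorem Pr_of_mem (hG : (Fintype.card G : k) ≠ 0) {u : Rm d e k} (hu : u ∈ UU ρ τ) :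
    Pr ρ τ u = u := by
  have := Pr_mul hu 1
  simp only [Matrix.mul_one, ← map_mul, mul_inv_cancel, map_one, Finset.sum_const,
    Finset.card_univ, ← Nat.cast_smul_eq_nsmul k, Matrix.mul_smul, smul_smul,
    inv_mul_cancel₀ hG, one_smul] at this
  exact this

theorem Pr_tr (h : Orth τ) (hG : (Fintype.card G : k) ≠ 0) {u : Rm d e k} (hu : u ∈ UU ρ τ)
    (T : Mat e k) : (e : k) • Pr ρ τ (u * T) = T.trace • u := by
  rw [Pr_mul hu, smul_comm, ← Matrix.mul_smul, orth_avg h, Matrix.mul_smul, Matrix.mul_one,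
    smul_smul, inv_mul_cancel_left₀ hG]

theorem Pr_left {M : Mat d k} (hM : ∀ c, ρ c * M = M * ρ c) (g : Rm d e k) :
    Pr ρ τ (M * g) = M * Pr ρ τ g := by
  rw [Pr_apply, Pr_apply, Matrix.mul_smul, Matrix.mul_sum]
  congr 1
  refine Finset.sum_congr rfl fun x _ => ?_
  rw [← Matrix.mul_assoc, hM]
  simp only [Matrix.mul_assoc]

theorem finrank_UU (hG : (Fintype.card G : k) ≠ 0) : (Module.finrank k (UU ρ τ) : k) =
    (Fintype.card G : k)⁻¹ * ∑ c, (ρ c).trace * (τ c⁻¹).trace := by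
  have h : LinearMap.IsProj (UU ρ τ) (Pr ρ τ) := ⟨Pr_mem ρ τ, fun _ hu => Pr_of_mem hG hu⟩
  rw [← h.trace, Pr, map_smul, map_sum, smul_eq_mul]
  simp only [trace_lr]

variable (ρ τ)

/-- the projection -/
noncomputable def Pc : Rm d e k →ₗ[k] UU ρ τ := (Pr ρ τ).codRestrict _ (Pr_mem ρ τ)

/-- the compression of a left multiplication -/
noncomputable def rr (M : Mat d k) : Module.End k (UU ρ τ) :=
  Pc ρ τ ∘ₗ lr M 1 ∘ₗ (UU ρ τ).subtype

theorem rr_apply (M : Mat d k) (f : UU ρ τ) : 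
    (rr ρ τ M f : Rm d e k) = Pr ρ τ (M * (f : Rm d e k)) := by
  simp [rr, Pc, lr_apply]

/-- a matrix attached to an endomorphism of the intertwining matrices -/
noncomputable def Ph (T : Module.End k (UU ρ τ)) : Mat d k :=
  ∑ l, ∑ j, (T (Pc ρ τ (single l j 1)) : Rm d e k) * single j l (1 : k)

theorem trace_rr (M : Mat d k) (T : Module.End k (UU ρ τ)) :
    LinearMap.trace k _ (rr ρ τ M * T) = (M * Ph ρ τ T).trace := by
  have : rr ρ τ M * T = Pc ρ τ ∘ₗ (lr M 1 ∘ₗ (UU ρ τ).subtype ∘ₗ T) := rfl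
  rw [this, LinearMap.trace_comp_comm', trM, Ph, Matrix.mul_sum, trace_sum]
  refine Finset.sum_congr rfl fun l _ => ?_
  rw [Matrix.mul_sum, trace_sum]
  refine Finset.sum_congr rfl fun j _ => ?_
  rw [← Matrix.mul_assoc, trace_mul_single]
  simp [lr_apply]

variable {ρ τ}

theorem rr_Ph (h : Orth τ) (hG : (Fintype.card G : k) ≠ 0) (T : Module.End k (UU ρ τ)) :
    (e : k) • rr ρ τ (Ph ρ τ T) = T := by
  ext f : 2
  have e1 : Pc ρ τ f = f := Subtype.ext (Pr_of_mem hG f.2)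
  have e2 : (f : Rm d e k) = ∑ l, ∑ j, (f : Rm d e k) l j • single l j (1 : k) := by
    simpa using matrix_eq_sum_single (f : Rm d e k)
  conv_rhs => rw [← e1, e2]
  rw [LinearMap.smul_apply, Submodule.coe_smul, rr_apply, Ph]
  simp only [Matrix.sum_mul, map_sum, Finset.smul_sum, map_smul, Submodule.coe_sum,
    Submodule.coe_smul]
  refine Finset.sum_congr rfl fun l _ => Finset.sum_congr rfl fun j _ => ?_
  rw [Matrix.mul_assoc, Pr_tr h hG (Subtype.property _), trace_single_mul]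
  simp

end Cfsg.Agent.H61.DsM
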