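import Mathlib
import Cfsg.Agent.H61.Huppert2

/-!
Solvable 2-homogeneous groups that are not doubly transitive.
-/

set_option autoImplicit false

namespace Cfsg.Agent.H61

open MulAction

variable {G Ω : Type*} [Group G] [MulAction G Ω]

theorem two_trans_of_homog_swap
    (h2 : ∀ a b c d : Ω, a ≠ b → c ≠ d → ∃ g : G, g • a = c ∧ g • b = d ∨ g • a = d ∧ g • b = c)
    {t : G} {a b : Ω} (hab : a ≠ b) (h1 : t • a = b) (h3 : t • b = a) :
    IsMultiplyPretransitive G Ω 2 := by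
  have key : ∀ c d : Ω, c ≠ d → ∃ g : G, g • c = a ∧ g • d = b := by
    intro c d hcd
    obtain ⟨g, ⟨e1, e2⟩ | ⟨e1, e2⟩⟩ := h2 c d a b hcd hab
    · exact ⟨g, e1, e2⟩
    · exact ⟨t * g, by rw [mul_smul, e1, h3], by rw [mul_smul, e2, h1]⟩
  refine is_two_pretransitive_iff.mpr fun {c d c' d'} hcd hcd' => ?_
  obtain ⟨g, e1, e2⟩ := key c d hcd
  obtain ⟨g', e3, e4⟩ := key c' d' hcd'
  exact ⟨g'⁻¹ * g, by rw [mul_smul, e1, inv_smul_eq_iff, e3], by
    rw [mul_smul, e2, inv_smul_eq_iff, e4]⟩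

theorem exists_abelian_normal_ne_bot (H : Type*) [Group H] [Finite H] [Nontrivial H]
    (hs : Group.IsSolvable H) :
    ∃ N : Subgroup H, N.Normal ∧ N ≠ ⊥ ∧ ∀ a ∈ N, ∀ b ∈ N, a * b = b * a := by
  obtain ⟨N, ⟨h1, h2⟩, h3⟩ := (wellFounded_lt (α := Subgroup H)).has_min
    {N | N.Normal ∧ N ≠ ⊥} ⟨⊤, inferInstance, top_ne_bot⟩
  refine ⟨N, h1, h2, fun a ha b hb => ?_⟩
  have h4 : ⁅N, N⁆ = ⊥ := by
    by_contra h4
    exact h3 _ ⟨inferInstance, h4⟩ (Group.IsSolvable.commutator_lt_of_ne_bot h2)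
  have := Subgroup.commutator_mem_commutator ha hb
  rwa [h4, Subgroup.mem_bot, commutatorElement_eq_one_iff_mul_comm] at this

theorem kantor_solvable [Finite G] [Finite Ω] [Nontrivial G]
    (hf : ∀ g : G, (∀ a : Ω, g • a = a) → g = 1)
    (h2 : ∀ a b c d : Ω, a ≠ b → c ≠ d → ∃ g : G, g • a = c ∧ g • b = d ∨ g • a = d ∧ g • b = c)
    (hn2 : ¬ IsMultiplyPretransitive G Ω 2) (hodd : Odd (Nat.card G))
    (hs : Group.IsSolvable G) :
    ∃ (F : Type) (_ : Field F) (_ : Fintype F) (f : F ≃ Ω), Fintype.card F % 4 = 3 ∧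
      (∀ g : G, ∃ (c b : F) (τ : F ≃+* F), c ≠ 0 ∧ ∀ x : F, g • f x = f (c * τ x + b)) ∧
      ∀ b : F, ∃ g : G, ∀ x : F, g • f x = f (x + b) := by
  obtain ⟨N, hNn, hN, hcomm⟩ := exists_abelian_normal_ne_bot G hs
  obtain ⟨⟨n, hn⟩, hn1⟩ := Subgroup.ne_bot_iff_exists_ne_one.mp hN
  replace hn1 : n ≠ 1 := fun e => hn1 (Subtype.ext e)
  obtain ⟨o, ho⟩ : ∃ o : Ω, n • o ≠ o := by
    by_contra hh
    push Not at hh
    exact hn1 (hf n hh)
  have htr : ∀ c d : Ω, ∃ u ∈ N, u • c = d := by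
    intro c d
    by_cases hcd : c = d
    · exact ⟨1, N.one_mem, by rw [hcd, one_smul]⟩
    obtain ⟨g, ⟨e1, e2⟩ | ⟨e1, e2⟩⟩ := h2 o (n • o) c d ho.symm hcd
    · exact ⟨g * n * g⁻¹, hNn.conj_mem n hn g, by
        rw [← e1, mul_smul, inv_smul_smul, mul_smul, e2]⟩
    · exact ⟨g * n⁻¹ * g⁻¹, hNn.conj_mem _ (N.inv_mem hn) g, by
        rw [← e2, mul_smul, inv_smul_smul, mul_smul, inv_smul_smul, e1]⟩
  have hfree : ∀ u ∈ N, ∀ a : Ω, u • a = a → u = 1 := fun u hu a ha => hf u fun b => by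
    obtain ⟨v, hv, rfl⟩ := htr a b
    rw [← mul_smul, hcomm u hu v hv, mul_smul, ha]
  have heq : ∀ u ∈ N, ∀ v ∈ N, u • o = v • o → u = v := fun u hu v hv e =>
    (inv_mul_eq_one.mp (hfree _ (N.mul_mem (N.inv_mem hv) hu) o (by
      rw [mul_smul, e, inv_smul_smul]))).symm
  let _ : CommGroup N := { (inferInstance : Group N) with
    mul_comm := fun x y => Subtype.ext (hcomm _ x.2 _ y.2) }
  let cj : G →* MulAut N := MulAut.conjNormal
  let _ : DistribMulAction (stabilizer G o × ℤˣ) (Additive N) :=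
    { smul := fun g v => (g.2 : ℤ) • Additive.ofMul (cj g.1.1 v.toMul)
      one_smul := fun v => by
        change ((1 : ℤˣ) : ℤ) • Additive.ofMul (cj 1 v.toMul) = v
        simp
      mul_smul := fun a b v => by
        change ((a.2 * b.2 : ℤˣ) : ℤ) • Additive.ofMul (cj (a.1.1 * b.1.1) v.toMul) =
          (a.2 : ℤ) • Additive.ofMul (cj a.1.1 ((b.2 : ℤ) • Additive.ofMul (cj b.1.1 v.toMul)).toMul)
        simp [mul_smul]
      smul_zero := fun a => by
        change (a.2 : ℤ) • Additive.ofMul (cj a.1.1 1) = 0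
        simp
      smul_add := fun a v w => by
        change (a.2 : ℤ) • Additive.ofMul (cj a.1.1 (v.toMul * w.toMul)) =
          (a.2 : ℤ) • Additive.ofMul (cj a.1.1 v.toMul) + (a.2 : ℤ) • Additive.ofMul (cj a.1.1 w.toMul)
        simp }
  have hp : ∀ (g : stabilizer G o) (v : Additive N),
      (((g, (1 : ℤˣ)) • v).toMul : G) = g.1 * v.toMul.1 * g.1⁻¹ := fun g v => by
    change ((((1 : ℤˣ) : ℤ) • Additive.ofMul (cj g.1 v.toMul)).toMul : G) = _
    simp [cj]
  have hm : ∀ (g : stabilizer G o) (v : Additive N),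
      (((g, (-1 : ℤˣ)) • v).toMul : G) = (g.1 * v.toMul.1 * g.1⁻¹)⁻¹ := fun g v => by
    change ((((-1 : ℤˣ) : ℤ) • Additive.ofMul (cj g.1 v.toMul)).toMul : G) = _
    simp [cj]
  have hco : ∀ (g : stabilizer G o) (u : G), (g.1 * u * g.1⁻¹) • o = g.1 • u • o := fun g u => by
    rw [mul_smul, mul_smul, inv_smul_eq_iff.mpr (mem_stabilizer_iff.mp g.2).symm]
  have hTL : IsTL (stabilizer G o × ℤˣ) (Additive N) :=
    { faithful := by
        rintro ⟨g, ε⟩ hg
        rcases Int.units_eq_one_or ε with rfl | rfl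
        · refine Prod.ext (Subtype.ext (hf _ fun a => ?_)) rfl
          obtain ⟨u, hu, rfl⟩ := htr o a
          have := hp g (Additive.ofMul ⟨u, hu⟩)
          rw [hg] at this
          exact (hco g u).symm.trans (congrArg (· • o) this.symm)
        · exfalso
          have h1 := hm g (Additive.ofMul ⟨n, hn⟩)
          have h3 := hm g (Additive.ofMul ⟨n⁻¹, N.inv_mem hn⟩)
          rw [hg] at h1 h3
          change n = (g.1 * n * g.1⁻¹)⁻¹ at h1
          change n⁻¹ = (g.1 * n⁻¹ * g.1⁻¹)⁻¹ at h3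
          refine hn2 (two_trans_of_homog_swap h2 (t := g.1) (a := n • o) (b := n⁻¹ • o)
            (fun e => ?_) (by rw [← hco, ← inv_eq_iff_eq_inv.mpr h1])
            (by rw [← hco, ← inv_injective h3]))
          have h4 : n ^ 2 = 1 := by
            rw [pow_two, ← eq_inv_iff_mul_eq_one]
            exact heq _ hn _ (N.inv_mem hn) e
          have h5 := orderOf_dvd_natCard n
          rw [orderOf_eq_prime h4 hn1] at h5
          exact (Nat.not_even_iff_odd.mpr hodd) (even_iff_two_dvd.mpr h5)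
      trans := by
        intro u v hu hv
        have hu' : u.toMul.1 • o ≠ o := fun e => hu (Subtype.ext (hfree _ u.toMul.2 o e))
        have hv' : v.toMul.1 • o ≠ o := fun e => hv (Subtype.ext (hfree _ v.toMul.2 o e))
        obtain ⟨g, ⟨e1, e2⟩ | ⟨e1, e2⟩⟩ := h2 o _ o _ hu'.symm hv'.symm
        · refine ⟨(⟨g, e1⟩, 1), Subtype.ext (Eq.trans (hp _ _) ?_)⟩
          exact heq _ (hNn.conj_mem _ u.toMul.2 g) _ v.toMul.2 ((hco ⟨g, e1⟩ _).trans e2)
        · have e3 : (v.toMul.1⁻¹ * g) • o = o := by rw [mul_smul, e1, inv_smul_smul]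
          refine ⟨(⟨_, e3⟩, -1), Subtype.ext (Eq.trans (hm _ _) (inv_eq_iff_eq_inv.mpr ?_))⟩
          refine heq _ (hNn.conj_mem _ u.toMul.2 _) _ (N.inv_mem v.toMul.2)
            ((hco ⟨_, e3⟩ _).trans ?_)
          change (v.toMul.1⁻¹ * g) • _ = _
          rw [mul_smul, e2]
          rfl }
  have : Nontrivial N := ⟨⟨⟨n, hn⟩, 1, fun e => hn1 (congrArg Subtype.val e)⟩⟩
  have h4 : Nat.card (Additive N) % 4 = 3 := by
    have h1 := hTL.card_sub_one_dvd
    rw [Nat.card_prod, Nat.card_eq_fintype_card (α := ℤˣ), Fintype.card_units_int] at h1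
    have h3 : Odd (Nat.card (stabilizer G o)) :=
      hodd.of_dvd_nat (stabilizer G o).card_subgroup_dvd_card
    have h5 : Odd (Nat.card (Additive N)) := hodd.of_dvd_nat N.card_subgroup_dvd_card
    obtain ⟨k, hk⟩ := h3
    obtain ⟨l, hl⟩ := h5
    by_contra h6
    have : 4 ∣ Nat.card (stabilizer G o) * 2 := (show 4 ∣ Nat.card (Additive N) - 1 by omega).trans h1
    omega
  obtain ⟨F, _, _, e, he⟩ := (hTL.huppert inferInstance).resolve_right (by
    intro h
    simp only [Set.mem_insert_iff, Set.mem_singleton_iff] at h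
    omega)
  let f₀ : Additive N ≃ Ω := Equiv.ofBijective (fun v => v.toMul.1 • o)
    ⟨fun u v huv => Subtype.ext (heq _ u.toMul.2 _ v.toMul.2 huv), fun a => by
      obtain ⟨u, hu, e⟩ := htr o a
      exact ⟨Additive.ofMul ⟨u, hu⟩, e⟩⟩
  have hT : ∀ u v : Additive N, u.toMul.1 • f₀ v = f₀ (v + u) := fun u v => by
    rw [add_comm]
    exact (mul_smul _ _ _).symm
  refine ⟨F, inferInstance, inferInstance, e.symm.toEquiv.trans f₀, ?_, fun g => ?_, fun b => ?_⟩
  · rw [← Nat.card_eq_fintype_card, ← Nat.card_congr e.toEquiv, h4]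
  · obtain ⟨t, ht⟩ := f₀.surjective (g • o)
    have e3 : (t.toMul.1⁻¹ * g) • o = o := by rw [mul_smul, ← ht]; exact inv_smul_smul _ _
    obtain ⟨a, σ, hσ⟩ := he (⟨_, e3⟩, 1)
    refine ⟨a, e t, σ, ?_, fun x => ?_⟩
    · rintro rfl
      obtain ⟨v, hv⟩ := exists_ne (0 : Additive N)
      have := hσ v
      rw [zero_mul, map_eq_zero_iff _ e.injective] at this
      exact smul_ne_zero_of_ne _ hv this
    · obtain ⟨v, rfl⟩ := e.surjective x
      change g • f₀ (e.symm (e v)) = f₀ (e.symm _)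
      rw [← hσ, ← map_add, e.symm_apply_apply, e.symm_apply_apply, ← hT]
      change _ = t.toMul.1 • (_ : G) • o
      rw [hp, hco, ← mul_smul, mul_inv_cancel_left]
      rfl
  · refine ⟨(e.symm b).toMul.1, fun x => ?_⟩
    change _ • f₀ (e.symm x) = f₀ (e.symm (x + b))
    rw [hT, e.symm.map_add]

end Cfsg.Agent.H61
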