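import Cfsg.Agent.H17.LPDefs

/-! Project LP, piece FRAME. -/

set_option autoImplicit false

namespace Cfsg.Agent.H61.LpFrame

open Cfsg Subgroup Matrix Cfsg.Agent.H17.LP

universe u

theorem cenT (y : N0) (hy : y ∈ T0) : y * zz 1 2 = zz 1 2 * y := by
  have h := (mem_Pat.1 hy).2
  refine N0.ext ?_ (by simp [zz])
  have e : (zz 1 2).a = single 0 1 1 + single 1 0 1 := rfl
  have e' : (zz 1 2).g = 1 := rfl
  have : y.g.1 * (single 0 1 1 + single 1 0 1 : M5) * y.g.1ᵀ = single 0 1 1 + single 1 0 1 := by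
    have h1 : ∀ i j, (y.g.1 * (single 0 1 1 + single 1 0 1 : M5) * y.g.1ᵀ) i j =
        y.g.1 i 0 * y.g.1 j 1 + y.g.1 i 1 * y.g.1 j 0 := fun i j => by
      simp [mul_apply, Fin.sum_univ_five, single, add_comm]
    ext i j
    rw [h1]
    fin_cases i <;> fin_cases j <;>
      simp [h 0 0 rfl, h 1 0 rfl, h 2 0 rfl, h 3 0 rfl, h 4 0 rfl, h 1 1 rfl, h 2 1 rfl, h 3 1 rfl,
        h 4 1 rfl, two_F]
  rw [mul_a, mul_a, e, e', this, add_comm]
  simp

theorem model {N : Type u} [Group N] {ι : M5 → N} {π : N →* SL5} (h : Ex ι π) (l : SL5 →* N)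
    (hl : ∀ g, π (l g) = g) : ∃ ψ : N0 →* N, Function.Bijective ψ ∧ ∀ x, π (ψ x) = x.g := by
  have k : ∀ a, Alt a → π (ι a) = 1 := fun a ha => (h.ker _).2 ⟨a, ha, rfl⟩
  let ψ : N0 →* N := MonoidHom.mk' (fun x => ι x.a * l x.g) fun x y => by
    have := h.act (l x.g) y.a y.alt
    rw [hl] at this
    rw [mul_a, mul_g, h.add _ _ x.alt (y.alt.act _), ← this, map_mul]
    group
  have hψ : ∀ x, π (ψ x) = x.g := fun x => by
    change π (ι x.a * l x.g) = _
    rw [map_mul, k _ x.alt, hl, one_mul]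
  refine ⟨ψ, ⟨(injective_iff_map_eq_one ψ).2 fun x hx => ?_, fun n => ?_⟩, hψ⟩
  · have e : x.g = 1 := by rw [← hψ, hx, map_one]
    change ι x.a * l x.g = 1 at hx
    rw [e, map_one, mul_one] at hx
    exact N0.ext (h.inj _ x.alt hx) e
  · obtain ⟨a, ha, e⟩ := (h.ker (n * (l (π n))⁻¹)).1 (by rw [map_mul, map_inv, hl, mul_inv_cancel])
    exact ⟨⟨a, π n, ha⟩, (eq_mul_of_mul_inv_eq e).symm⟩

open scoped IsMulCommutative in
theorem ex (hM : ModStmt.{u}) {G : Type u} [Group G] [Finite G] (A : Subgroup G)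
    (hA : IsElementaryAbelian 2 A) (hc : Nat.card A = 2 ^ 10)
    (e0 : ↥(normalizer (A : Set G)) ⧸ A.subgroupOf (normalizer (A : Set G)) ≃* SL5)
    (irr : ∀ W : Subgroup G, W ≤ A → normalizer (A : Set G) ≤ normalizer (W : Set G) → W = ⊥ ∨ W = A) :
    ∃ (ι : M5 → normalizer (A : Set G)) (π : normalizer (A : Set G) →* SL5), Ex ι π ∧
      ∀ n, π n = 1 ↔ (n : G) ∈ A := by
  have := hA.1
  let _ : Module F (Additive A) := AddCommGroup.zmodModule fun x =>
    Additive.toMul.injective (Subtype.ext (hA.2 _ x.toMul.2))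
  let c : SL5 →* MulAut A := (QuotientGroup.lift _ (normalizerMonoidHom A) fun n hn =>
    MulEquiv.ext fun a => Subtype.ext (mul_inv_eq_of_eq_mul
      (congrArg Subtype.val (mul_comm (⟨n, hn⟩ : A) a)))).comp e0.symm.toMonoidHom
  let π0 : normalizer (A : Set G) →* SL5 := e0.toMonoidHom.comp (QuotientGroup.mk' _)
  have hc0 : ∀ n (a : A), (c (π0 n) a : G) = n * a * (n : G)⁻¹ := fun n a => by
    simp [c, π0]
    rfl
  have s0 : Function.Surjective π0 := e0.surjective.comp (QuotientGroup.mk'_surjective _)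
  let ρ : Representation F SL5 (Additive A) :=
    { toFun g := (MonoidHom.toAdditive (c g).toMonoidHom).toZModLinearMap 2
      map_one' := LinearMap.ext fun w => by rw [map_one]; rfl
      map_mul' g h := LinearMap.ext fun w => by rw [map_mul]; rfl }
  have hρ : ∀ g w, (ρ g w).toMul = c g w.toMul := fun _ _ => rfl
  have simp : Simp ρ := by
    refine ⟨Finite.one_lt_card_iff_nontrivial.1 (by
      change 1 < Nat.card A; rw [hc]; norm_num), fun S hS => ?_⟩
    let B : Subgroup A := AddSubgroup.toSubgroup' S.toAddSubgroup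
    rcases irr (B.map A.subtype) (map_subtype_le B) (fun n hn => mem_normalizer_fintype (by
      rintro _ ⟨b, hb, rfl⟩
      exact ⟨_, hS (π0 ⟨n, hn⟩) (Additive.ofMul b) hb, hc0 ⟨n, hn⟩ b⟩)) with h | h
    · refine Or.inl (eq_bot_iff.2 fun w hw => Additive.toMul.injective (Subtype.ext ?_))
      exact h.le (mem_map_of_mem A.subtype (show w.toMul ∈ B from hw))
    · refine Or.inr (eq_top_iff.2 fun w _ => ?_)
      obtain ⟨b, hb, e⟩ := h.ge w.toMul.2
      rw [← ofMul_toMul w, ← (Subtype.ext e : b = w.toMul)]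
      exact hb
  obtain ⟨θ, e, e1, e2, e3, e4⟩ := hM (Additive A) ρ simp hc
  have k : ∀ n, (θ.symm.toMonoidHom.comp π0) n = 1 ↔ (n : G) ∈ A := fun n => by
    simp [π0, mem_subgroupOf]
  refine ⟨fun a => ⟨(e a).toMul, le_normalizer (e a).toMul.2⟩, θ.symm.toMonoidHom.comp π0,
    ⟨fun a b ha hb => Subtype.ext (by simp [e1 a b ha hb]),
      fun a ha h => e2 a ha (Additive.toMul.injective (Subtype.ext
        (congrArg (fun x : normalizer (A : Set G) => x.1) h))),
      fun n => (k n).trans ⟨fun h => ?_, ?_⟩, θ.symm.surjective.comp s0,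
      fun n a ha => Subtype.ext ?_⟩, k⟩
  · obtain ⟨a, ha, h'⟩ := e3 (Additive.ofMul ⟨n, h⟩)
    exact ⟨a, ha, Subtype.ext (by simp [h'])⟩
  · rintro ⟨a, -, rfl⟩
    exact (e a).toMul.2
  · change _ = ((e _).toMul : G)
    rw [← e4 _ a ha, hρ]
    exact (hc0 n _).symm.trans (by simp)

theorem frame (k : KitStmt) : FrameStmt.{u} := by
  intro hM hS G _ _ A hA hc ⟨e0⟩ irr odd
  obtain ⟨ι, π, h, hk⟩ := ex hM A hA hc e0 irr
  obtain ⟨l, hl⟩ := hS ι π h
  obtain ⟨ψ, ⟨inj, sur⟩, hψ⟩ := model h l hl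
  have hA0 : A0.map ((normalizer (A : Set G)).subtype.comp ψ) = A := by
    have : ∀ x, x ∈ A0 ↔ (ψ x : G) ∈ A := fun x => by
      rw [← hk, hψ]
      exact ⟨fun hx => Subtype.ext (Matrix.ext fun i j => (mem_Pat.1 hx).2 i j rfl),
        fun hx => mem_Pat.2 ⟨fun _ _ h => by simp at h, fun _ _ _ => by rw [hx]; rfl⟩⟩
    refine le_antisymm (by rintro _ ⟨x, hx, rfl⟩; exact (this x).1 hx) fun a ha => ?_
    obtain ⟨x, hx⟩ := sur ⟨a, le_normalizer ha⟩
    exact ⟨x, (this x).2 (hx ▸ ha), congrArg Subtype.val hx⟩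
  refine ⟨_, ⟨(normalizer (A : Set G)).subtype_injective.comp inj, ?_, ?_⟩, hA0⟩
  · rw [hA0, MonoidHom.range_comp, MonoidHom.range_eq_top.2 sur, ← MonoidHom.range_eq_map,
      range_subtype]
  · have : Fact (Nat.Prime 2) := ⟨Nat.prime_two⟩
    have h1 := T0.card_mul_index
    rw [k.1, k.2.2.1, Nat.mul_right_inj (by norm_num)] at h1
    let T : Sylow 2 N0 := (IsPGroup.of_card k.2.2.1).toSylow (by rw [h1]; norm_num)
    refine odd (T.mapSurjective sur) (ψ (zz 1 2)) (mem_map_of_mem ψ (show _ ∈ T0 by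
      unfold T0; decide)) ?_ ?_
    · rw [orderOf_injective ψ inj]
      exact orderOf_eq_prime (by decide) (by decide)
    · rintro _ ⟨y, hy, rfl⟩
      rw [← map_mul, ← map_mul, cenT y hy]

end Cfsg.Agent.H61.LpFrame
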