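import Cfsg.Agent.H45.OnDefs

/-! Sylow theory for `Sy` (piece SY). -/

set_option autoImplicit false

namespace Cfsg.Agent.H61.OnSy

open Subgroup Cfsg.Agent.H45.On
open scoped Pointwise

universe u

theorem sy : SyStmt.{u} := by
  intro G _ _ L P hPL hP
  have : Fact (Nat.Prime 2) := ⟨Nat.prime_two⟩
  have sub : ∀ Q : Subgroup G, IsPGroup 2 Q → IsPGroup 2 (Q.subgroupOf L) := fun Q h =>
    h.comap_of_injective _ L.subtype_injective
  obtain ⟨S, hS⟩ := (sub P hP).exists_le_sylow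
  have toS : ∀ Q, Sy Q L → ∃ T : Sylow 2 L, (T : Subgroup L) = Q.subgroupOf L := fun Q h =>
    ⟨(sub Q h.2.1).toSylow h.2.2.not_two_dvd_nat, rfl⟩
  refine ⟨⟨(S : Subgroup L).map L.subtype, ?_, map_subtype_le _, S.isPGroup'.map _, ?_⟩,
    fun Q hQ hQP => ?_, fun Q hQ => ?_⟩
  · exact fun x hx => ⟨⟨x, hPL hx⟩, hS hx, rfl⟩
  · rw [relIndex, subgroupOf, comap_map_eq_self_of_injective L.subtype_injective]
    exact Nat.not_even_iff_odd.1 fun h => S.not_dvd_index (even_iff_two_dvd.1 h)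
  · obtain ⟨T, hT⟩ := toS Q hQ
    have := T.is_maximal' (sub P hP) (hT ▸ comap_mono hQP)
    refine le_antisymm (fun x hx => ?_) hQP
    have h1 : (⟨x, hPL hx⟩ : L) ∈ P.subgroupOf L := hx
    rw [this] at h1
    exact hT.le h1
  · obtain ⟨T, hT⟩ := toS Q hQ
    obtain ⟨g, hg⟩ := MulAction.exists_smul_eq L S T
    refine ⟨g, g.2, ?_⟩
    rintro _ ⟨x, hx, rfl⟩
    have h1 : MulAut.conj g • (⟨x, hPL hx⟩ : L) ∈ ((g • S : Sylow 2 L) : Subgroup L) :=
      smul_mem_pointwise_smul _ _ _ (hS hx)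
    rw [hg, hT] at h1
    exact h1

end Cfsg.Agent.H61.OnSy
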