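import Mathlib

/-! A table certificate for a matrix group acting regularly on the non-zero vectors of `F²`. -/

set_option autoImplicit false

namespace Cfsg.Agent.H61

open Matrix

theorem regular_of_table {F : Type*} [Field F] [Fintype F] [DecidableEq F]
    (S : Set (GL (Fin 2) F)) (T : F → F → F × F) (D : F → F → ℕ)
    (hT0 : T 1 0 = (0, 1))
    (hT : ∀ g ∈ S, ∀ x y : F, (x ≠ 0 ∨ y ≠ 0) →
      T (g 0 0 * x + g 0 1 * y) (g 1 0 * x + g 1 1 * y) =
        (g 0 0 * (T x y).1 + g 0 1 * (T x y).2, g 1 0 * (T x y).1 + g 1 1 * (T x y).2))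
    (hD : ∀ x y : F, (x ≠ 0 ∨ y ≠ 0) → (x = 1 ∧ y = 0) ∨
      ∃ g ∈ S, D (g 0 0 * x + g 0 1 * y) (g 1 0 * x + g 1 1 * y) < D x y) :
    Nat.card (Subgroup.closure S) = Fintype.card F ^ 2 - 1 ∧
      ∀ v w : Fin 2 → F, v ≠ 0 → w ≠ 0 → ∃! h : Subgroup.closure S,
        ((h : GL (Fin 2) F) : Matrix (Fin 2) (Fin 2) F) *ᵥ v = w := by
  let T' : (Fin 2 → F) → Fin 2 → F := fun v => ![(T (v 0) (v 1)).1, (T (v 0) (v 1)).2]
  have hmv : ∀ (g : GL (Fin 2) F) (v : Fin 2 → F), (g : Matrix (Fin 2) (Fin 2) F) *ᵥ v =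
      ![g 0 0 * v 0 + g 0 1 * v 1, g 1 0 * v 0 + g 1 1 * v 1] := fun g v => by
    ext i
    fin_cases i <;> simp [Matrix.mulVec, dotProduct, Fin.sum_univ_two]
  have hne : ∀ v : Fin 2 → F, v ≠ 0 → v 0 ≠ 0 ∨ v 1 ≠ 0 := fun v hv => by
    by_contra h
    push Not at h
    exact hv (funext fun i => by fin_cases i <;> simp [h.1, h.2])
  have hinv : ∀ (g : GL (Fin 2) F) (v : Fin 2 → F),
      ((g⁻¹ : GL (Fin 2) F) : Matrix (Fin 2) (Fin 2) F) *ᵥ
        ((g : Matrix (Fin 2) (Fin 2) F) *ᵥ v) = v := fun g v => by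
    rw [mulVec_mulVec, ← Units.val_mul, inv_mul_cancel, Units.val_one, one_mulVec]
  have hinv' : ∀ (g : GL (Fin 2) F) (v : Fin 2 → F),
      (g : Matrix (Fin 2) (Fin 2) F) *ᵥ
        (((g⁻¹ : GL (Fin 2) F) : Matrix (Fin 2) (Fin 2) F) *ᵥ v) = v := fun g v => by
    rw [mulVec_mulVec, ← Units.val_mul, mul_inv_cancel, Units.val_one, one_mulVec]
  have hnz : ∀ (g : GL (Fin 2) F) (v : Fin 2 → F), v ≠ 0 →
      (g : Matrix (Fin 2) (Fin 2) F) *ᵥ v ≠ 0 := fun g v hv e => hv (by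
    rw [← hinv g v, e, mulVec_zero])
  have h1 : ∀ h ∈ Subgroup.closure S, ∀ v : Fin 2 → F, v ≠ 0 →
      T' ((h : Matrix (Fin 2) (Fin 2) F) *ᵥ v) = (h : Matrix (Fin 2) (Fin 2) F) *ᵥ T' v := by
    intro h hh
    induction hh using Subgroup.closure_induction with
    | mem g hg =>
      intro v hv
      rw [hmv, hmv]
      simp only [T', cons_val_zero, cons_val_one, hT g hg _ _ (hne v hv)]
    | one => intro v _; simp
    | mul a b _ _ ha hb =>
      intro v hv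
      rw [Units.val_mul, ← mulVec_mulVec, ← mulVec_mulVec, ha _ (hnz b v hv), hb v hv]
    | inv a _ ha =>
      intro v hv
      have := ha _ (hnz a⁻¹ v hv)
      rw [hinv'] at this
      rw [this, hinv]
  let e : Fin 2 → F := ![1, 0]
  have he : e ≠ 0 := fun h => by simpa [e] using congrFun h 0
  have h2 : ∀ h ∈ Subgroup.closure S, (h : Matrix (Fin 2) (Fin 2) F) *ᵥ e = e → h = 1 := by
    intro h hh hhe
    have h3 := h1 h hh e he
    rw [hhe, hmv] at h3
    rw [hmv] at hhe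
    simp only [T', e, cons_val_zero, cons_val_one, hT0, mul_zero, mul_one, zero_add,
      add_zero] at h3 hhe
    ext i j
    fin_cases i <;> fin_cases j
    · simpa using congrFun hhe 0
    · simpa using (congrFun h3 0).symm
    · simpa using congrFun hhe 1
    · simpa using (congrFun h3 1).symm
  have h3 : ∀ (n : ℕ) (v : Fin 2 → F), v ≠ 0 → D (v 0) (v 1) < n →
      ∃ h ∈ Subgroup.closure S, (h : Matrix (Fin 2) (Fin 2) F) *ᵥ e = v := by
    intro n
    induction n with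
    | zero => intro v _ h; omega
    | succ n ih =>
      intro v hv hn
      rcases hD _ _ (hne v hv) with ⟨h0, h1⟩ | ⟨g, hg, hlt⟩
      · refine ⟨1, Subgroup.one_mem _, ?_⟩
        rw [Units.val_one, one_mulVec]
        ext i
        fin_cases i <;> simp [e, h0, h1]
      · obtain ⟨h, hh, hhe⟩ := ih _ (hnz g v hv) (by
          rw [hmv]
          simp only [cons_val_zero, cons_val_one]
          omega)
        refine ⟨g⁻¹ * h, Subgroup.mul_mem _ (Subgroup.inv_mem _ (Subgroup.subset_closure hg)) hh, ?_⟩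
        rw [Units.val_mul, ← mulVec_mulVec, hhe, hinv]
  have h4 : ∀ a b : Subgroup.closure S, ((a : GL (Fin 2) F) : Matrix (Fin 2) (Fin 2) F) *ᵥ e =
      ((b : GL (Fin 2) F) : Matrix (Fin 2) (Fin 2) F) *ᵥ e → a = b := fun a b hab => by
    have := h2 (b.1⁻¹ * a.1) (Subgroup.mul_mem _ (Subgroup.inv_mem _ b.2) a.2) (by
      rw [Units.val_mul, ← mulVec_mulVec, hab, hinv])
    exact Subtype.ext (inv_mul_eq_one.mp this).symm
  constructor
  · have hb : Function.Bijective fun h : Subgroup.closure S =>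
        (⟨((h : GL (Fin 2) F) : Matrix (Fin 2) (Fin 2) F) *ᵥ e, hnz _ _ he⟩ :
          {v : Fin 2 → F // v ≠ 0}) := by
      refine ⟨fun a b hab => h4 a b (congrArg Subtype.val hab), fun v => ?_⟩
      obtain ⟨h, hh, hhe⟩ := h3 _ v.1 v.2 (Nat.lt_succ_self _)
      exact ⟨⟨h, hh⟩, Subtype.ext hhe⟩
    rw [Nat.card_eq_of_bijective _ hb, Nat.card_eq_fintype_card, Fintype.card_subtype_compl]
    simp
  · intro v w hv hw
    obtain ⟨a, ha, hae⟩ := h3 _ v hv (Nat.lt_succ_self _)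
    obtain ⟨b, hb, hbe⟩ := h3 _ w hw (Nat.lt_succ_self _)
    refine ⟨⟨b * a⁻¹, Subgroup.mul_mem _ hb (Subgroup.inv_mem _ ha)⟩, ?_, fun c hc => ?_⟩
    · change ((b * a⁻¹ : GL (Fin 2) F) : Matrix (Fin 2) (Fin 2) F) *ᵥ v = w
      rw [Units.val_mul, ← mulVec_mulVec, ← hae, hinv, hbe]
    · have := h4 (c * ⟨a, ha⟩) ⟨b, hb⟩ (by
        change ((c.1 * a : GL (Fin 2) F) : Matrix (Fin 2) (Fin 2) F) *ᵥ e = _
        rw [Units.val_mul, ← mulVec_mulVec, hae, hc, hbe])
      exact Subtype.ext (eq_mul_inv_of_mul_eq (congrArg Subtype.val this))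

end Cfsg.Agent.H61
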