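import Cfsg.Agent.H18.RfSc

/-! Project RF, piece K2C. -/

set_option autoImplicit false

namespace Cfsg.Agent.H61.RfK2c

open Cfsg Subgroup Cfsg.Agent.H18.MaxOff Cfsg.Agent.H18.Rf

universe u

/-- an odd group of automorphisms fixing the fixed points of a 2-group normalising it -/
theorem abs {H A : Type*} [Group H] [CommGroup A] [Finite A] (hA : IsPGroup 2 A) (φ : H →* MulAut A)
    (F P : Subgroup H) (hF : Odd (Nat.card (F.map φ))) (hP : IsPGroup 2 P)
    (hn : P ≤ normalizer (F : Set H)) (h : ∀ a, (∀ p ∈ P, φ p a = a) → ∀ f ∈ F, φ f a = a) :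
    ∀ f ∈ F, ∀ a, φ f a = a := by
  classical
  have : Fact (Nat.Prime 2) := ⟨Nat.prime_two⟩
  have := Fintype.ofFinite (F.map φ)
  let Nm : A →* A :=
    { toFun a := ∏ σ : F.map φ, σ.1 a
      map_one' := by simp
      map_mul' a b := by simp [Finset.prod_mul_distrib] }
  have hN : ∀ a, Nm a = ∏ σ : F.map φ, σ.1 a := fun _ => rfl
  have k1 : ∀ p ∈ P, ∀ a, Nm (φ p a) = φ p (Nm a) := fun p hp a => by
    rw [hN, hN, map_prod]
    refine (Fintype.prod_equiv (normalizerMonoidHom (F.map φ)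
      ⟨φ p, le_normalizer_map φ (mem_map_of_mem φ (hn hp))⟩).toEquiv _ _ fun σ => ?_).symm
    change _ = (φ p * σ * (φ p)⁻¹) (φ p a)
    simp
  have k2 : Nm.ker = ⊥ := by
    by_contra hne
    let _ : MulAction P Nm.ker :=
      { smul p a := ⟨φ p a, by
          rw [MonoidHom.mem_ker, k1 p p.2, MonoidHom.mem_ker.1 a.2, map_one]⟩
        one_smul a := Subtype.ext (by change φ 1 a = a; rw [map_one]; rfl)
        mul_smul p q a := Subtype.ext (by change φ (p * q) a = φ p (φ q a); rw [map_mul]; rfl) }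
    have hd : 2 ∣ Nat.card Nm.ker :=
      ((hA.to_subgroup _).card_eq_or_dvd).resolve_left fun e => hne (eq_bot_of_card_eq _ e)
    obtain ⟨a, ha, a1⟩ := hP.exists_fixed_point_of_prime_dvd_card_of_fixed_point Nm.ker hd
      (a := 1) fun p => Subtype.ext (map_one (φ p))
    have h1 := h a fun p hp => congrArg Subtype.val (ha ⟨p, hp⟩)
    have h2 : (a : A) ^ Nat.card (F.map φ) = 1 := by
      rw [← MonoidHom.mem_ker.1 a.2, hN, Finset.prod_congr rfl (g := fun _ => (a : A)),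
        Finset.prod_const, Finset.card_univ, Nat.card_eq_fintype_card]
      rintro ⟨_, f, hf, rfl⟩ -
      exact h1 f hf
    obtain ⟨k, hk⟩ := hA a
    exact a1 (Subtype.ext (orderOf_eq_one_iff.1 (Nat.eq_one_of_dvd_coprimes
      ((Nat.coprime_two_left.2 hF).pow_left k) (orderOf_dvd_of_pow_eq_one hk)
      (orderOf_dvd_of_pow_eq_one h2))).symm)
  intro f hf a
  refine (MonoidHom.ker_eq_bot_iff _).1 k2 ?_
  rw [hN, hN]
  exact Fintype.prod_equiv (Equiv.mulRight ⟨φ f, mem_map_of_mem φ hf⟩) _ _ fun σ => rfl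

open scoped IsMulCommutative in
theorem amb {G : Type u} [Group G] [Finite G] {H E U F P C : Subgroup G} (hE : E ≤ H)
    (hU : H ≤ NN U) (nE : H ≤ NN E) (p2 : IsPGroup 2 E) (ab : E ≤ CM E U) (hF : F ≤ H) (hP : P ≤ H)
    (pP : IsPGroup 2 P) (nF : P ≤ NN F) (hC : C ≤ CM E U) (od : Odd (C.relIndex F))
    (h : ∀ e ∈ E, (∀ p ∈ P, p * e * p⁻¹ * e⁻¹ ∈ U) → ∀ f ∈ F, f * e * f⁻¹ * e⁻¹ ∈ U) :
    F ≤ CM E U := by
  have := normal_subgroupOf_of_le_normalizer hU
  have n2 := normal_subgroupOf_of_le_normalizer nE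
  let π := QuotientGroup.mk' (U.subgroupOf H)
  let A := (E.subgroupOf H).map π
  have : A.Normal := n2.map π (QuotientGroup.mk'_surjective _)
  let φ : H →* MulAut A := (MulAut.conjNormal (H := A)).comp π
  have key : ∀ (g e : H) (he : e ∈ E.subgroupOf H), φ g ⟨π e, mem_map_of_mem π he⟩ =
      ⟨π e, mem_map_of_mem π he⟩ ↔ (g : G) * e * (g : G)⁻¹ * (e : G)⁻¹ ∈ U := fun g e he => by
    rw [Subtype.ext_iff]
    change π g * π e * (π g)⁻¹ = π e ↔ _
    rw [← mul_inv_eq_one, ← map_inv, ← map_inv, ← map_mul, ← map_mul, ← map_mul,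
      QuotientGroup.mk'_apply, QuotientGroup.eq_one_iff]
    rfl
  have : IsMulCommutative A := ⟨⟨by
    rintro ⟨_, a, ha, rfl⟩ ⟨_, b, hb, rfl⟩
    have := congrArg Subtype.val ((key a b hb).2 ((ab ha).2 b hb))
    exact Subtype.ext (mul_inv_eq_iff_eq_mul.1 this)⟩⟩
  have h1 := abs (A := A) ((p2.comap_of_injective _ H.subtype_injective).map π) φ (F.subgroupOf H)
    (P.subgroupOf H) ?_ (pP.comap_of_injective _ H.subtype_injective) ?_ ?_
  · exact fun f hf => ⟨hU (hF hf), fun e he => (key ⟨f, hF hf⟩ ⟨e, hE he⟩ he).1 (h1 _ hf _)⟩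
  · rw [← relIndex_ker]
    have : (C ⊓ F).subgroupOf H ≤ φ.ker := fun c hc => MulEquiv.ext (by
      rintro ⟨_, e, he, rfl⟩
      exact (key c e he).2 ((hC hc.1).2 e he))
    refine Odd.of_dvd_nat ?_ (relIndex_dvd_of_le_left _ this)
    rwa [relIndex_subgroupOf hF, inf_relIndex_right]
  · rw [← subgroupOf_normalizer_eq hF]
    exact fun p hp => nF hp
  · rintro ⟨_, e, he, rfl⟩ hp f hf
    exact (key f e he).2 (h e he (fun p hp' => (key ⟨p, hP hp'⟩ e he).1 (hp _ hp')) f hf)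

theorem k2c (rk : RkGStmt.{u}) : K2cStmt.{u} := by
  classical
  intro G _ _ V ρ ψ O Q W gs w hw hz ek t ht htw F hC hF tF vF od fW
  have lc := gs.lc
  set z := ψ O
  have el := gs.st.el
  have wV : w ∈ V := (ek.we hw).1
  have hH : H2 V z Q w ≤ NN (UU z w) := fun x hx => hx.1.2
  have UV : UU z w ≤ V := (closure_le _).2 (by rintro _ (rfl | rfl); exacts [lc.zV, wV])
  have cU : Nat.card (UU z w) ≤ 4 := by
    have : (UU z w : Set G) = ({1, z, w, z * w} : Finset G) := Set.ext fun x => by simp [ek.um]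
    rw [← SetLike.coe_sort_coe, Nat.card_coe_set_eq, this, Set.ncard_coe_finset]
    exact Finset.card_le_four
  have tV : zpowers t ≤ NN V := zpowers_le.2 (lc.qm ht).1
  have pt : IsPGroup 2 (zpowers t) := lc.xs.isPGroup.to_le (zpowers_le.2 ht)
  have h1 : F ≤ CM (Ew V z Q w) (UU z w) := by
    refine amb (fun x hx => (ek.ab hx).1.1) hH (fun x hx => hx.2) ek.p2 (fun x hx => (ek.ab hx).2) hF
      (sup_le (zpowers_le.2 (ek.qh ht)) ek.vh) (pg_sup (pg_of_sq el) pt tV)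
      (sup_le (zpowers_le.2 tF) vF) (C := Cc V z Q w) (fun x hx => hx.2) od fun e he hp f hf => ?_
    have eQ : e ∈ Q ⊓ C1 w := by
      rw [← ek.e3 t ht htw]
      refine ⟨he, hH (ek.ab he).1.1, ?_⟩
      intro x hx
      rw [Set.mem_singleton_iff.1 hx]
      simpa [mul_assoc] using inv_mem (hp t (mem_sup_left (mem_zpowers t)))
    have hv : ∀ v ∈ V, v * e * v⁻¹ * e⁻¹ ∈ UU z w := fun v hv => hp v (mem_sup_right hv)
    let c : V →* UU z w := MonoidHom.mk' (fun v => ⟨_, hv v v.2⟩) fun a b => Subtype.ext (by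
      have h1 := comm_of_sq el a.2 (UV (hv b b.2))
      have h2 := comm_of_sq el (UV (hv a a.2)) (UV (hv b b.2))
      change (a * b : G) * e * (a * b : G)⁻¹ * e⁻¹ = (a * e * (a : G)⁻¹ * e⁻¹) * (b * e * (b : G)⁻¹ * e⁻¹)
      rw [h2, ← mul_assoc, ← mul_assoc, ← mul_assoc, ← h1]
      group)
    have h2 : Nat.card c.ker ≤ Nat.card ↥(V ⊓ C1 e) :=
      Nat.card_le_card_of_injective (fun v => ⟨v.1.1, v.1.2, mem_centralizer_singleton_iff.2
        (mul_inv_eq_iff_eq_mul.1 (mul_inv_eq_one.1 (congrArg Subtype.val v.2)))⟩)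
        fun a b h => Subtype.ext (Subtype.ext (congrArg (fun x : ↥(V ⊓ C1 e) => x.1) h))
    have h3 := c.ker.card_mul_index
    have h4 : c.ker.index ≤ 4 := by
      rw [index_ker]
      exact (card_le_card_group _).trans cU
    rw [gs.st.card] at h3
    have eV := rk G V ρ ψ gs.st gs.gol e (lc.qm eQ.1).1 (by nlinarith)
    exact (fW hf).2 e (lc.qv.le ⟨eQ.1, eV⟩)
  refine fun f hf => ⟨⟨hF hf, ?_⟩, h1 hf⟩
  have fz : f * z * f⁻¹ = z := mul_inv_eq_of_eq_mul (mem_centralizer_singleton_iff.1 (hF hf).1.1)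
  have h2 : f * f ∈ C1 w := by
    rw [mem_centralizer_singleton_iff, ← mul_inv_eq_iff_eq_mul,
      show f * f * w * (f * f)⁻¹ = f * (f * w * f⁻¹) * f⁻¹ by group]
    rcases (ek.um _).1 ((mem_normalizer_iff.1 (hH (hF hf)) w).1 (subset_closure (by simp))) with
      e | e | e | e
    · exact absurd (conj_eq_one_iff.1 e ▸ one_mem _) hz
    · exact absurd ((MulAut.conj f).injective (e.trans fz.symm) ▸ mem_zpowers z) hz
    · rw [e, e]
    · rw [e, ← conj_mul, fz, e, ← mul_assoc, lc.xs.zz, one_mul]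
  have := normal_subgroupOf_of_le_normalizer (hF.trans ek.cn)
  have h3 : f ^ (Cc V z Q w).relIndex F ∈ Cc V z Q w :=
    ((Cc V z Q w).subgroupOf F).pow_index_mem ⟨f, hf⟩
  obtain ⟨k, hk⟩ := od
  have h4 := h3.1.2
  rw [hk, pow_succ, pow_mul, pow_two] at h4
  exact (mul_mem_cancel_left (pow_mem h2 k)).1 h4

end Cfsg.Agent.H61.RfK2c
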